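import Cfsg.Agent.Blocks.Subsection.QuotientBlock
import Cfsg.Agent.Blocks.Defect.Quotient

/-!
# The block of the quotient by a central `p`-subgroup

The characters of `K ⧸ N` inflating into a block `b` form one block, with at least `l(b)` members.
-/

set_option autoImplicit false
set_option linter.style.haveILetI false
open Cfsg CfsgLib CfsgLib.Blocks CfsgLib.Blocks.HeightZero
open scoped ComplexConjugate

namespace CfsgLib.Blocks.AbelianRank

universe u

variable {K : Type u} [Group K] [Fintype K] {p : ℕ} {M : Ideal AlgInt} {N : Subgroup K} [N.Normal]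

/-- Classes of regular elements keep their size in the quotient. -/
theorem index_centralizer_mk' (hp : p.Prime) (hN : N ≤ Subgroup.center K) (hNp : IsPGroup p N)
    {g : K} (hg : ¬ p ∣ orderOf g) :
    (Subgroup.centralizer ({(g : K ⧸ N)} : Set (K ⧸ N))).index =
      (Subgroup.centralizer ({g} : Set K)).index := by
  rw [← Subgroup.index_comap_of_surjective _ (QuotientGroup.mk'_surjective N)]
  congr 1
  ext x
  rw [Subgroup.mem_comap, Subgroup.mem_centralizer_singleton_iff,
    Subgroup.mem_centralizer_singleton_iff, QuotientGroup.mk'_apply, ← QuotientGroup.mk_mul,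
    ← QuotientGroup.mk_mul]
  constructor
  · intro h
    set c := (x * g)⁻¹ * (g * x) with hc
    have hcm : c ∈ N := QuotientGroup.eq.1 h
    have hcc : c ∈ Subgroup.center K := hN hcm
    haveI : Fact p.Prime := ⟨hp⟩
    obtain ⟨e, he⟩ := IsPGroup.iff_orderOf.1 hNp ⟨c, hcm⟩
    rw [Subgroup.orderOf_mk] at he
    have hconj : x⁻¹ * g * x = g * c := by rw [hc]; group
    have hcomm : Commute g c := Subgroup.mem_center_iff.1 hcc g
    have hord : orderOf (g * c) = orderOf g := by
      rw [← hconj]
      simpa using orderOf_injective (MulAut.conj x⁻¹).toMonoidHom (MulAut.conj x⁻¹).injective g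
    have hc1 : c = 1 := by
      rw [hcomm.orderOf_mul_eq_mul_orderOf_of_coprime
        (by rw [he]; exact (hp.coprime_iff_not_dvd.2 hg).symm.pow_right e)] at hord
      exact orderOf_eq_one_iff.1 ((mul_eq_left₀ (orderOf_pos g).ne').1 hord)
    calc x * g = x * g * c := by rw [hc1, mul_one]
      _ = g * x := by rw [hc]; group
  · intro h; rw [h]

/-- Inflation preserves the central characters at regular elements. -/
theorem centralChar_inflate' (hp : p.Prime) (hN : N ≤ Subgroup.center K) (hNp : IsPGroup p N)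
    (θ : IrrCharacter (K ⧸ N)) {g : K} (hg : ¬ p ∣ orderOf g) :
    centralChar (Chars.inflate N θ : K → ℂ) g = centralChar (θ : K ⧸ N → ℂ) (g : K ⧸ N) := by
  unfold centralChar
  rw [index_centralizer_mk' hp hN hNp hg]
  rfl

/-- The characters of the quotient inflating into a block form one block. -/
theorem below_eq_blockOf (hM : IsPModular p M) (hN : N ≤ Subgroup.center K) (hNp : IsPGroup p N)
    {b : Set (IrrCharacter K)} (hb : IsPBlock M b) {θ : IrrCharacter (K ⧸ N)}
    (hθ : θ ∈ Quot.below N b) : Quot.below N b = blockOf M (θ : K ⧸ N → ℂ) := by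
  classical
  have : Fact p.Prime := ⟨hM.1⟩
  have := isMaximal_of_isPModular hM
  haveI : Fintype (K ⧸ N) := Fintype.ofFinite _
  refine Set.Subset.antisymm (fun θ' hθ' => ?_) (Quot.blockOf_subset_below hb hθ)
  have h : SameBlock M (Chars.inflate N θ : K → ℂ) (Chars.inflate N θ' : K → ℂ) :=
    sameBlock_of_mem hb hθ hθ'
  show SameBlock M (θ : K ⧸ N → ℂ) (θ' : K ⧸ N → ℂ)
  refine Contrib.sameBlock_of_regular hM fun x hx => ?_
  obtain ⟨g₀, rfl⟩ := QuotientGroup.mk_surjective x
  -- a regular lift
  obtain ⟨v, w, hvw, hv, hw⟩ : ∃ v w : K, g₀ = v * w ∧ v ∈ N ∧ ¬ p ∣ orderOf w := by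
    obtain ⟨v, hv⟩ := exists_isPPart hM.1 g₀
    obtain ⟨w, hvw, hcomm, ⟨e, he⟩, hw⟩ := hv
    refine ⟨v, w, hvw.symm, ?_, hw⟩
    have hdvd : orderOf ((v : K) : K ⧸ N) ∣ orderOf v := orderOf_map_dvd (QuotientGroup.mk' N) v
    rw [← QuotientGroup.eq_one_iff]
    by_contra hne
    apply hx
    obtain ⟨e', -, he'⟩ := (Nat.dvd_prime_pow hM.1).1 (he ▸ hdvd)
    have he'0 : e' ≠ 0 := fun h0 => hne (orderOf_eq_one_iff.1 (by rw [he', h0, pow_zero]))
    have hco : Nat.Coprime (orderOf ((v : K) : K ⧸ N)) (orderOf ((w : K) : K ⧸ N)) := by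
      refine Nat.Coprime.coprime_dvd_right (orderOf_map_dvd (QuotientGroup.mk' N) w) ?_
      rw [he']
      exact Nat.Coprime.pow_left _ (hM.1.coprime_iff_not_dvd.2 hw)
    rw [← hvw, QuotientGroup.mk_mul, (show Commute ((v : K) : K ⧸ N) ((w : K) : K ⧸ N) from
      hcomm.map (QuotientGroup.mk' N)).orderOf_mul_eq_mul_orderOf_of_coprime hco, he']
    exact Dvd.dvd.mul_right (dvd_pow_self p he'0) _
  have e : (g₀ : K ⧸ N) = (w : K ⧸ N) := by
    rw [hvw, QuotientGroup.mk_mul, (QuotientGroup.eq_one_iff v).2 hv, one_mul]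
  rw [e, ← centralChar_inflate' hM.1 hN hNp θ hw, ← centralChar_inflate' hM.1 hN hNp θ' hw]
  exact h w

omit [Fintype K] [N.Normal] in
/-- A nontrivial element of a central `p`-group makes a regular element singular. -/
theorem dvd_orderOf_mul (hp : p.Prime) (hN : N ≤ Subgroup.center K) (hNp : IsPGroup p N) {x : K}
    (hx : ¬ p ∣ orderOf x) {n : K} (hn : n ∈ N) (hn1 : n ≠ 1) : p ∣ orderOf (x * n) := by
  haveI : Fact p.Prime := ⟨hp⟩
  obtain ⟨e, he⟩ := IsPGroup.iff_orderOf.1 hNp ⟨n, hn⟩
  rw [Subgroup.orderOf_mk] at he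
  rw [(show Commute x n from Subgroup.mem_center_iff.1 (hN hn) x).orderOf_mul_eq_mul_orderOf_of_coprime
    (by rw [he]; exact (hp.coprime_iff_not_dvd.2 hx).symm.pow_right e), he]
  exact Dvd.dvd.mul_left (dvd_pow_self p fun h0 => hn1 (orderOf_eq_one_iff.1 (by rw [he, h0, pow_zero]))) _

/-- The regular parts of a block are spanned by those of its members trivial on `N`. -/
theorem pRegularPart_mem_span_below (hM : IsPModular p M) (hN : N ≤ Subgroup.center K)
    (hNp : IsPGroup p N) {b : Set (IrrCharacter K)} (hb : IsPBlock M b) {ξ : IrrCharacter K}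
    (hξ : ξ ∈ b) :
    pRegularPart p (ξ : K → ℂ) ∈ Submodule.span ℂ (Set.range fun θ : Quot.below N b =>
      pRegularPart p (Chars.inflate N (θ : IrrCharacter (K ⧸ N)) : K → ℂ)) := by
  classical
  haveI := Fintype.ofFinite N
  have hp := hM.1
  set F : K → ℂ := pRegularPart p (ξ : K → ℂ) with hF
  have hexp := Chars.eq_sum_classInner_smul
    (isClassFunction_pRegularPart (p := p) (Chars.isClassFunction_coe ξ))
  have hout : ∀ η : IrrCharacter K, η ∉ b → classInner F (η : K → ℂ) = 0 := fun η hη => by
    rw [hF, classInner_pRegularPart_eq _ (Chars.isCharacter_coe η), regPair_symm,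
      regPair_eq_zero_of_ne_block hM hb hξ hη, mul_zero]
  have key : F = ∑ η ∈ Finset.univ.filter
      (fun η : IrrCharacter K => η ∈ b ∧ N ≤ Chars.charKer (η : K → ℂ)),
        ((Nat.card N : ℂ) * classInner F (η : K → ℂ)) • pRegularPart p (η : K → ℂ) := by
    funext x
    simp only [Pi.smul_apply, smul_eq_mul, Finset.sum_apply]
    by_cases hx : p ∣ orderOf x
    · simp [hF, pRegularPart, IsPRegular, hx]
    have hr : ∀ φ : K → ℂ, pRegularPart p φ x = φ x := fun φ => by
      simp [pRegularPart, IsPRegular, hx]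
    simp only [hr]
    calc F x = ∑ n : N, F (x * n) := by
          rw [Finset.sum_eq_single (1 : N) (fun n _ hn => ?_) fun h => absurd (Finset.mem_univ _) h]
          · simp
          · have := dvd_orderOf_mul hp hN hNp hx n.2 (fun h => hn (Subtype.ext h))
            simp [hF, pRegularPart, IsPRegular, this]
      _ = ∑ n : N, ∑ η : IrrCharacter K, classInner F (η : K → ℂ) * (η : K → ℂ) (x * n) :=
          Finset.sum_congr rfl fun n _ => by
            have h1 := congrFun hexp (x * n)
            simp only [Finset.sum_apply, Pi.smul_apply, smul_eq_mul] at h1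
            exact h1
      _ = _ := by
          rw [Finset.sum_comm]
          simp only [← Finset.mul_sum]
          rw [Finset.sum_filter]
          refine Finset.sum_congr rfl fun η _ => ?_
          by_cases hη : η ∈ b
          · by_cases hker : N ≤ Chars.charKer (η : K → ℂ)
            · rw [if_pos ⟨hη, hker⟩]
              have h1 : ∀ n : N, (η : K → ℂ) (x * n) = (η : K → ℂ) x := fun n => by
                rw [show x * (n : K) = n * x from Subgroup.mem_center_iff.1 (hN n.2) x,
                  Chars.mem_charKer.mp (hker n.2) x]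
              rw [Finset.sum_congr rfl fun n _ => h1 n, Finset.sum_const, Finset.card_univ,
                nsmul_eq_mul, Nat.card_eq_fintype_card]
              ring
            · rw [if_neg fun h => hker h.2, Chars.sum_coset_eq_zero N η hker x, mul_zero]
          · rw [if_neg fun h => hη h.1, hout η hη, zero_mul]
  rw [key]
  refine Submodule.sum_mem _ fun η hη => Submodule.smul_mem _ _ ?_
  obtain ⟨hηb, hker⟩ := (Finset.mem_filter.1 hη).2
  obtain ⟨θ, rfl⟩ := Chars.exists_inflate_eq N η hker
  exact Submodule.subset_span ⟨⟨θ, hηb⟩, rfl⟩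

/-- The block of the quotient, with at least `l(b)` characters. -/
theorem exists_below_block (hM : IsPModular p M) (hN : N ≤ Subgroup.center K) (hNp : IsPGroup p N)
    {b : Set (IrrCharacter K)} (hb : IsPBlock M b) :
    IsPBlock M (Quot.below N b) ∧ blockRank p b ≤ Nat.card (Quot.below N b) := by
  classical
  haveI := isMaximal_of_isPModular hM
  haveI : Fintype (Quot.below N b) := Fintype.ofFinite _
  constructor
  · obtain ⟨θ, hθ⟩ : (Quot.below N b).Nonempty := by
      obtain ⟨ξ, hξ⟩ := nonempty_of_isPBlock hb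
      by_contra hne
      haveI : IsEmpty (Quot.below N b) := ⟨fun θ => hne ⟨θ.1, θ.2⟩⟩
      have h := pRegularPart_mem_span_below (p := p) hM hN hNp hb hξ
      rw [Set.range_eq_empty, Submodule.span_empty, Submodule.mem_bot] at h
      have h1 := congrFun h 1
      simp [pRegularPart, IsPRegular, hM.1.ne_one] at h1
      exact Chars.map_one_ne_zero ξ h1
    exact ⟨θ, below_eq_blockOf hM hN hNp hb hθ⟩
  · rw [Nat.card_eq_fintype_card, blockRank]
    refine (Submodule.finrank_mono (Submodule.span_le.2 ?_)).trans (finrank_range_le_card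
      fun θ : Quot.below N b => pRegularPart p (Chars.inflate N (θ : IrrCharacter (K ⧸ N)) : K → ℂ))
    rintro _ ⟨ξ, hξ, rfl⟩
    exact pRegularPart_mem_span_below hM hN hNp hb hξ

end CfsgLib.Blocks.AbelianRank
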