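import Mathlib

/-!
# Abelian `p`-groups with few elements of order `p`

* `exists_faithful_point`: at most `p ^ 2` roots of unity of order `p` give an element of maximal
  order with trivial stabilizer in any group of automorphisms of order prime to `p`;
* `card_kerPow_map_le`: factoring out an element of maximal order loses one generator.
-/

set_option autoImplicit false
set_option linter.style.haveILetI false

namespace CfsgLib.Blocks.AbelianRank

variable {A : Type*} [CommGroup A] {p : ℕ}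

/-- The elements killed by `p`. -/
abbrev kerPow (p : ℕ) (A : Type*) [CommGroup A] : Subgroup A := (powMonoidHom p : A →* A).ker

theorem mem_kerPow {x : A} : x ∈ kerPow p A ↔ x ^ p = 1 := Iff.rfl

/-- A kernel of a power map has the size of the cokernel. -/
theorem card_kerPow_eq_index [Finite A] :
    Nat.card (kerPow p A) = (powMonoidHom p : A →* A).range.index := by
  have h1 := (powMonoidHom p : A →* A).range.card_mul_index
  have h2 := (kerPow p A).card_mul_index
  rw [Subgroup.index_ker] at h2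
  rw [← h1, mul_comm (Nat.card (powMonoidHom p : A →* A).range)] at h2
  exact mul_right_cancel₀ Nat.card_pos.ne' h2

/-- Rank `r` gives at most `p ^ r` elements killed by `p`. -/
theorem card_kerPow_le [Finite A] (hp : 0 < p) {r : ℕ} (hr : Group.rank A = r) :
    Nat.card (kerPow p A) ≤ p ^ r := by
  rw [card_kerPow_eq_index, Subgroup.index_eq_card]
  set N := (powMonoidHom p : A →* A).range
  have hN : ∀ q : A ⧸ N, q ^ p = 1 := fun q => by
    obtain ⟨x, rfl⟩ := QuotientGroup.mk_surjective q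
    rw [← QuotientGroup.mk_pow, QuotientGroup.eq_one_iff]
    exact ⟨x, rfl⟩
  have hrank : Group.rank (A ⧸ N) ≤ r :=
    hr ▸ Group.rank_le_of_surjective (QuotientGroup.mk' N) (QuotientGroup.mk'_surjective N)
  exact (Nat.le_of_dvd (pow_pos hp _) (card_dvd_exponent_pow_rank' _ hN)).trans
    (Nat.pow_le_pow_right hp hrank)

/-- An automorphism of order prime to `p` trivial on the elements killed by `p` is trivial. -/
theorem mulAut_eq_one (hA : IsPGroup p A) (e : MulAut A) {n : ℕ} (hn : e ^ n = 1)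
    (hco : Nat.Coprime p n) (h : ∀ x : A, x ^ p = 1 → e x = x) : e = 1 := by
  refine MulEquiv.ext fun x => ?_
  obtain ⟨k, hk⟩ := hA x
  induction k generalizing x with
  | zero => rw [pow_zero, pow_one] at hk; simp [hk]
  | succ k ih =>
    have hxp : e (x ^ p) = x ^ p := ih (x ^ p) (by rw [← pow_mul, ← pow_succ']; exact hk)
    set y := x⁻¹ * e x with hy
    have hyp : y ^ p = 1 := by rw [hy, mul_pow, ← map_pow, hxp, inv_pow, inv_mul_cancel]
    have hey : e y = y := h y hyp
    have hit : ∀ i : ℕ, (e ^ i) x = x * y ^ i := by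
      intro i
      induction i with
      | zero => simp
      | succ i ih' =>
        rw [pow_succ', MulAut.mul_apply, ih', map_mul, map_pow, hey, pow_succ', ← mul_assoc, hy,
          mul_inv_cancel_left]
    have hyn : y ^ n = 1 := by
      have h1 := hit n
      rwa [hn, MulAut.one_apply, eq_comm, mul_eq_left] at h1
    have hy1 : y = 1 := orderOf_eq_one_iff.1 (Nat.eq_one_of_dvd_coprimes hco
      (orderOf_dvd_of_pow_eq_one hyp) (orderOf_dvd_of_pow_eq_one hyn))
    rw [hy, inv_mul_eq_one] at hy1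
    simpa using hy1.symm

variable [Finite A] [Fact p.Prime]

/-- The points fixed by a nontrivial automorphism of order prime to `p` are few. -/
theorem mem_zpowers_of_fixed (hA : IsPGroup p A) (hΩ : Nat.card (kerPow p A) ≤ p ^ 2)
    {e : MulAut A} (he1 : e ≠ 1) {n : ℕ} (hn : e ^ n = 1) (hco : Nat.Coprime p n) {u : A} {m : ℕ}
    (hu : orderOf u = p ^ (m + 1)) (hmax : ∀ x : A, x ^ p ^ (m + 1) = 1) (heu : e u = u) {x : A}
    (hx : e x = x) : x ∈ Subgroup.zpowers u := by
  have hp : p.Prime := Fact.out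
  let F : Subgroup A :=
    { carrier := {a | e a = a}
      one_mem' := map_one e
      mul_mem' := fun {a b} (ha : e a = a) (hb : e b = b) => show e (a * b) = a * b by
        rw [map_mul, ha, hb]
      inv_mem' := fun {a} (ha : e a = a) => show e a⁻¹ = a⁻¹ by rw [map_inv, ha] }
  have hF : ∀ a, a ∈ F ↔ e a = a := fun _ => Iff.rfl
  have hz : orderOf (u ^ p ^ m) = p := by
    rw [orderOf_pow' _ (pow_ne_zero _ hp.ne_zero), hu,
      Nat.gcd_eq_right (pow_dvd_pow p (Nat.le_succ m)), Nat.pow_div (Nat.le_succ m) hp.pos,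
      Nat.succ_sub (le_refl m), Nat.sub_self, pow_one]
  set Z := Subgroup.zpowers (u ^ p ^ m) with hZ
  have hZle : Z ≤ kerPow p A ⊓ F := Subgroup.zpowers_le.2
    ⟨(show (u ^ p ^ m) ^ p = 1 from (congrArg ((u ^ p ^ m) ^ ·) hz.symm).trans
      (pow_orderOf_eq_one _)), (hF _).2 (by rw [map_pow, heu])⟩
  have hlt : kerPow p A ⊓ F < kerPow p A := by
    refine lt_of_le_of_ne inf_le_left fun h => he1 (mulAut_eq_one hA e hn hco fun a ha => ?_)
    exact (inf_eq_left.1 h) (mem_kerPow.2 ha)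
  have hcard : Nat.card (kerPow p A ⊓ F : Subgroup A) ≤ p := by
    by_contra hgt
    push Not at hgt
    obtain ⟨j, hj⟩ := (IsPGroup.iff_card).1 (hA.to_subgroup (kerPow p A ⊓ F))
    rw [hj] at hgt
    have h2 : 2 ≤ j := by
      by_contra hj2
      exact absurd ((Nat.pow_le_pow_right hp.pos (show j ≤ 1 by omega)).trans_eq (pow_one p))
        (not_le.2 hgt)
    exact hlt.ne (Subgroup.eq_of_le_of_card_ge hlt.le
      (hΩ.trans ((Nat.pow_le_pow_right hp.pos h2).trans hj.ge)))
  have heq : Z = kerPow p A ⊓ F :=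
    Subgroup.eq_of_le_of_card_ge hZle (hcard.trans_eq (by rw [hZ, Nat.card_zpowers, hz]))
  suffices key : ∀ k : ℕ, ∀ a ∈ F, a ^ p ^ k = 1 → a ∈ Subgroup.zpowers u from
    key (m + 1) x ((hF x).2 hx) (hmax x)
  intro k
  induction k with
  | zero => intro a _ ha; rw [pow_zero, pow_one] at ha; exact ha ▸ one_mem _
  | succ k ih =>
    intro a haF ha
    obtain ⟨i, hi⟩ := ih (a ^ p) (F.pow_mem haF p) (by rw [← pow_mul, ← pow_succ']; exact ha)
    have hi' : u ^ i = a ^ p := hi
    have hdvd : (p : ℤ) ∣ i := by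
      have h1 : u ^ (i * (p ^ m : ℕ)) = 1 := by
        rw [zpow_mul, hi', zpow_natCast, ← pow_mul, ← pow_succ']; exact hmax a
      have h2 := orderOf_dvd_iff_zpow_eq_one.2 h1
      rw [hu, pow_succ'] at h2
      push_cast at h2
      exact Int.dvd_of_mul_dvd_mul_right (pow_ne_zero _ (Int.natCast_ne_zero.2 hp.ne_zero)) h2
    obtain ⟨j, rfl⟩ := hdvd
    have hmem : a * (u ^ j)⁻¹ ∈ Z := heq ▸ Subgroup.mem_inf.2
      ⟨mem_kerPow.2 (by
        rw [mul_pow, ← hi', inv_pow, ← zpow_natCast (u ^ j), ← zpow_mul, mul_comm j,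
          mul_inv_cancel]),
        F.mul_mem haF (F.inv_mem (F.zpow_mem ((hF u).2 heu) j))⟩
    have := (Subgroup.zpowers u).mul_mem
      ((Subgroup.zpowers_le.2 (Subgroup.pow_mem _ (Subgroup.mem_zpowers u) _) : Z ≤ _) hmem)
      (Subgroup.zpow_mem _ (Subgroup.mem_zpowers u) j)
    rwa [inv_mul_cancel_right] at this

/-- An element of maximal order with trivial stabilizer. -/
theorem exists_faithful_point (hA : IsPGroup p A) (hΩ : Nat.card (kerPow p A) ≤ p ^ 2)
    (hbig : p ^ 3 ≤ Nat.card A) (E : Subgroup (MulAut A)) (hE : ¬ p ∣ Nat.card E) :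
    ∃ u : A, u ≠ 1 ∧ ∀ e ∈ E, e u = u → e = 1 := by
  classical
  have hp : p.Prime := Fact.out
  have hco : Nat.Coprime p (Nat.card E) := hp.coprime_iff_not_dvd.2 hE
  have hEpow : ∀ e ∈ E, e ^ Nat.card E = 1 := fun e he =>
    congrArg Subtype.val (pow_card_eq_one' (x := (⟨e, he⟩ : E)))
  obtain ⟨u, hu⟩ := Monoid.exists_orderOf_eq_exponent (Monoid.ExponentExists.of_finite (G := A))
  obtain ⟨m, hm⟩ := IsPGroup.iff_orderOf.1 hA u
  have hmax : ∀ x : A, x ^ p ^ m = 1 := fun x => by
    rw [← hm, hu]; exact Monoid.pow_exponent_eq_one x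
  obtain ⟨m, rfl⟩ : ∃ k, m = k + 2 := by
    refine ⟨m - 2, (Nat.sub_add_cancel ?_).symm⟩
    by_contra hlt
    have htop : kerPow p A = ⊤ := (Subgroup.eq_top_iff' _).2 fun x => mem_kerPow.2 (by
      have := hmax x
      rcases (show m = 0 ∨ m = 1 by omega) with rfl | rfl
      · rw [pow_zero, pow_one] at this; rw [this, one_pow]
      · rwa [pow_one] at this)
    rw [htop, Subgroup.card_top] at hΩ
    exact absurd (hbig.trans hΩ) (not_le.2 (Nat.pow_lt_pow_right hp.one_lt (by omega)))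
  have hu1 : u ≠ 1 := by
    rintro rfl
    rw [orderOf_one] at hm
    exact absurd hm.symm (Nat.one_lt_pow (by omega) hp.one_lt).ne'
  by_cases hgood : ∀ e ∈ E, e u = u → e = 1
  · exact ⟨u, hu1, hgood⟩
  push Not at hgood
  obtain ⟨e, heE, heu, he1⟩ := hgood
  obtain ⟨w, hw, hwu⟩ : ∃ w : A, w ^ p = 1 ∧ w ∉ Subgroup.zpowers u := by
    by_contra hno
    push Not at hno
    refine he1 (mulAut_eq_one hA e (hEpow e heE) hco fun x hx => ?_)
    obtain ⟨i, rfl⟩ := hno x hx
    simp [map_zpow, heu]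
  set u' := u * w with hu'
  have hup : u' ^ p = u ^ p := by rw [hu', mul_pow, hw, mul_one]
  have hu'1 : u' ≠ 1 := by
    rw [hu', Ne, mul_eq_one_iff_eq_inv]
    intro h
    exact hwu (by rw [← inv_inv w, ← h]; exact Subgroup.inv_mem _ (Subgroup.mem_zpowers u))
  refine ⟨u', hu'1, fun e' he'E he'u => ?_⟩
  by_contra he'1
  have hu'ord : orderOf u' = p ^ (m + 2) := by
    refine orderOf_eq_prime_pow ?_ (hmax u')
    rw [pow_succ', pow_mul, hup, ← pow_mul, ← pow_succ']
    intro h
    have := orderOf_dvd_of_pow_eq_one h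
    rw [hm, Nat.pow_dvd_pow_iff_le_right hp.one_lt] at this
    omega
  -- the sum over the stabilizer of `u ^ p`
  let E0 : Subgroup (MulAut A) :=
    { carrier := {ε | ε ∈ E ∧ ε (u ^ p) = u ^ p}
      one_mem' := ⟨E.one_mem, rfl⟩
      mul_mem' := fun {a b} ha hb => ⟨E.mul_mem ha.1 hb.1, by
        rw [MulAut.mul_apply, hb.2, ha.2]⟩
      inv_mem' := fun {a} ha => ⟨E.inv_mem ha.1, by
        show a⁻¹ (u ^ p) = u ^ p
        rw [MulAut.inv_apply, MulEquiv.symm_apply_eq, ha.2]⟩ }
  haveI := Fintype.ofFinite E0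
  set f : A := ∏ ε : E0, (ε : MulAut A) u with hf
  have hfix : ∀ δ : E0, (δ : MulAut A) f = f := fun δ => by
    rw [hf, map_prod]
    exact Fintype.prod_equiv (Equiv.mulLeft δ) _ _ fun ε => by simp
  have he0 : e ∈ E0 := ⟨heE, by rw [map_pow, heu]⟩
  have he'0 : e' ∈ E0 := ⟨he'E, by rw [← hup, map_pow, he'u]⟩
  have h1 := mem_zpowers_of_fixed hA hΩ he1 (hEpow e heE) hco hm hmax heu (hfix ⟨e, he0⟩)
  have h2 := mem_zpowers_of_fixed hA hΩ he'1 (hEpow e' he'E) hco hu'ord hmax he'u (hfix ⟨e', he'0⟩)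
  obtain ⟨a, ha⟩ := h1
  obtain ⟨b, hb⟩ := h2
  have ha' : u ^ a = f := ha
  have hb' : u' ^ b = f := hb
  have hpb : (p : ℤ) ∣ b := by
    by_contra hpb
    obtain ⟨c, hc⟩ : ∃ c : ℤ, u' = (u' ^ b) ^ c := by
      have hcop : IsCoprime b ((p : ℤ) ^ (m + 2)) :=
        (((Nat.prime_iff_prime_int.1 hp).coprime_iff_not_dvd).2 hpb).symm.pow_right
      obtain ⟨c, d, hcd⟩ := hcop
      have h0 : u' ^ ((p : ℤ) ^ (m + 2)) = 1 := by
        rw [← Nat.cast_pow, zpow_natCast, hmax]
      refine ⟨c, ?_⟩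
      conv_lhs => rw [← zpow_one u', ← hcd, zpow_add, mul_comm d, zpow_mul u' _ d, h0, one_zpow,
        mul_one, mul_comm c, zpow_mul]
    rw [hb', ← ha'] at hc
    refine hwu ?_
    rw [show w = u⁻¹ * u' by rw [hu', inv_mul_cancel_left], hc]
    exact Subgroup.mul_mem _ (Subgroup.inv_mem _ (Subgroup.mem_zpowers u))
      (Subgroup.zpow_mem _ (Subgroup.zpow_mem _ (Subgroup.mem_zpowers u) _) _)
  obtain ⟨c, rfl⟩ := hpb
  have hf1 : f = (u ^ p) ^ c := by rw [← hb', zpow_mul, zpow_natCast, hup]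
  have hf2 : f ^ p = (u ^ p) ^ Fintype.card E0 := by
    rw [hf, ← Finset.prod_pow, Finset.prod_congr rfl fun ε _ => by rw [← map_pow, ε.2.2],
      Finset.prod_const, Finset.card_univ]
  have hord : orderOf (u ^ p) = p ^ (m + 1) := by
    rw [orderOf_pow' _ hp.ne_zero, hm, pow_succ', Nat.gcd_mul_right_left,
      Nat.mul_div_cancel_left _ hp.pos]
  have h3 : (u ^ p) ^ ((Fintype.card E0 : ℤ) - c * p) = 1 := by
    rw [zpow_sub, zpow_natCast, ← hf2, zpow_mul, ← hf1, zpow_natCast, mul_inv_cancel]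
  have h4 := orderOf_dvd_iff_zpow_eq_one.2 h3
  rw [hord] at h4
  have h5 : (p : ℤ) ∣ (Fintype.card E0 : ℤ) - c * p :=
    dvd_trans (by exact_mod_cast dvd_pow_self p (Nat.succ_ne_zero m)) h4
  have h6 : p ∣ Fintype.card E0 := by
    have := dvd_add h5 (dvd_mul_left (p : ℤ) c)
    rw [sub_add_cancel] at this
    exact_mod_cast this
  refine hE (h6.trans ?_)
  rw [← Nat.card_eq_fintype_card]
  exact Subgroup.card_dvd_of_le (show E0 ≤ E from fun x hx => hx.1)

/-- Factoring out an element outside the `p`-th powers loses one generator. -/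
theorem card_kerPow_map_le {Q : Type*} [CommGroup Q] (hA : IsPGroup p A) (f : A →* Q)
    (hf : Function.Surjective f) {r : ℕ} (hΩ : Nat.card (kerPow p A) ≤ p ^ (r + 1)) {u : A}
    (hu : u ∈ f.ker) (hu' : ∀ v : A, v ^ p ≠ u) : Nat.card (kerPow p Q) ≤ p ^ r := by
  have hp : p.Prime := Fact.out
  haveI : Finite Q := Finite.of_surjective f hf
  set R := (powMonoidHom p : A →* A).range ⊔ f.ker with hR
  have hmap : R.map f = (powMonoidHom p : Q →* Q).range := by
    rw [hR, Subgroup.map_sup, (Subgroup.map_eq_bot_iff _).2 le_rfl, sup_bot_eq, MonoidHom.map_range]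
    ext q
    constructor
    · rintro ⟨a, rfl⟩; exact ⟨f a, by simp⟩
    · rintro ⟨b, rfl⟩
      obtain ⟨a, rfl⟩ := hf b
      exact ⟨a, by simp⟩
  rw [card_kerPow_eq_index, ← hmap, Subgroup.index_map_eq R hf le_sup_right]
  rw [card_kerPow_eq_index] at hΩ
  have hle : (powMonoidHom p : A →* A).range ≤ R := le_sup_left
  have hne : (powMonoidHom p : A →* A).range.relIndex R ≠ 1 := fun h => by
    obtain ⟨v, hv⟩ := Subgroup.relIndex_eq_one.1 h (Subgroup.mem_sup_right hu)
    exact hu' v hv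
  have hmul := Subgroup.relIndex_mul_index hle
  obtain ⟨j, hj⟩ := hA.index (powMonoidHom p : A →* A).range
  obtain ⟨i, -, hi⟩ := (Nat.dvd_prime_pow hp).1 (hj ▸ Subgroup.relIndex_dvd_index_of_normal
    (H := (powMonoidHom p : A →* A).range) R :
      (powMonoidHom p : A →* A).range.relIndex R ∣ p ^ j)
  have hi1 : 1 ≤ i := by
    rcases Nat.eq_zero_or_pos i with rfl | h
    · exact absurd hi (by simpa using hne)
    · exact h
  refine Nat.le_of_mul_le_mul_left ?_ hp.pos
  calc p * R.index ≤ (powMonoidHom p : A →* A).range.relIndex R * R.index :=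
        Nat.mul_le_mul_right _ (hi ▸ Nat.le_self_pow (by omega) p)
    _ ≤ p ^ (r + 1) := hmul.trans_le hΩ
    _ = p * p ^ r := pow_succ' p r

end CfsgLib.Blocks.AbelianRank
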