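import Cfsg.Agent.Blocks.AbelianRank.Group
import Cfsg.Agent.Blocks.AbelianFree.Local
import Cfsg.Agent.Blocks.AbelianFree.Global
import Cfsg.Agent.Blocks.KleinFour.Pairs
import Cfsg.Agent.Blocks.KleinFour.Count
import Cfsg.Agent.Blocks.Defect.SubgroupTransport

/-!
# The centralizer of an element with trivial inertial stabilizer

* `blockRank_eq_of_central`: a central section has the rank of the block;
* `blockRank_eq_one_of_stab`: if only `C(D)` stabilizes the maximal pair and fixes `u ∈ D`, the
  block of `C(u)` below it has rank one.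
-/

set_option autoImplicit false
set_option linter.style.haveILetI false
open Cfsg CfsgLib CfsgLib.Blocks
open scoped MonoidAlgebra

namespace CfsgLib.Blocks.AbelianRank

universe u

variable {G : Type u} [Group G] [Finite G] {p : ℕ} [Fact p.Prime] {M : Ideal AlgInt} [M.IsMaximal]
  [CharP (kres M) p] {B : Set (IrrCharacter G)}

/-- A central section has the rank of the block. -/
theorem blockRank_eq_of_central (hM : IsPModular p M) (hB : IsPBlock M B) {x : G}
    (hx : ∃ e : ℕ, orderOf x = p ^ e) (hxc : x ∈ Subgroup.center G) {H : Subgroup G}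
    (hH : H = Subgroup.centralizer ({x} : Set G)) {b : Set (IrrCharacter H)}
    (hb : IsInducedBlock M H b B) : blockRank p b = blockRank p B := by
  subst hH
  classical
  have hsum := KleinFour.sum_rank_central (p := p) hM hB hx hxc
  have htop : Subgroup.centralizer ({x} : Set G) = ⊤ := eq_top_iff.2 fun g _ =>
    Subgroup.mem_centralizer_singleton_iff.2 (Subgroup.mem_center_iff.1 hxc g)
  have hkey : ∀ c : Set (IrrCharacter (Subgroup.centralizer ({x} : Set G))),
      IsInducedBlock M (Subgroup.centralizer ({x} : Set G)) c B →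
        subEl M (Subgroup.centralizer ({x} : Set G)) c = topEl M B := by
    intro c hc
    have hp := (KleinFour.isInducedBlock_iff_pair hM hB hx hc.1).1 hc
    have h1 : brTrunc (Subgroup.zpowers x) (topEl M B) * subEl M _ c = subEl M _ c := hp.2
    rw [brTrunc_eq_self (fun g hg => absurd (by
      rw [HeightZero.centralizer_zpowers_eq, htop]; exact Subgroup.mem_top g) hg)] at h1
    have hblk : IsBlockIdem ⊤ (subEl M (Subgroup.centralizer ({x} : Set G)) c) := by
      have := isBlockIdem_subEl (M := M) hc.1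
      generalize subEl M (Subgroup.centralizer ({x} : Set G)) c = e at this ⊢
      rwa [htop] at this
    exact ((isBlockIdem_topEl hB).eq_of_mul_ne_zero hblk (by rw [h1]; exact hblk.ne_zero)).symm
  have hset : {c : Set (IrrCharacter (Subgroup.centralizer ({x} : Set G))) |
      IsInducedBlock M (Subgroup.centralizer ({x} : Set G)) c B} = {b} := by
    ext c
    exact ⟨fun hc => subEl_injective (M := M) hc.1 hb.1 ((hkey c hc).trans (hkey b hb).symm),
      fun hc => hc ▸ hb⟩
  rwa [hset, finsum_mem_singleton] at hsum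

/-- A nilpotent situation: rank one. -/
theorem blockRank_eq_one_of_central_free [Fintype G] (hM : IsPModular p M) (hB : IsPBlock M B)
    {P : Subgroup G} (hPD : IsDefectGroup p M B P) (hab : ∀ x ∈ P, ∀ y ∈ P, x * y = y * x)
    {f : MonoidAlgebra (kres M) G} (hpair : IsPairOfIdem p ⊤ (topEl M B) P f)
    (hstab : pairStab ⊤ P f ≤ Subgroup.centralizer (P : Set G)) {z : G} (hzP : z ∈ P)
    (hz1 : z ≠ 1) (hzc : z ∈ Subgroup.center G) : blockRank p B = 1 := by
  have hS : AbelianFree.Setting p M B P f := ⟨hM, hB, hPD, hab, hpair, fun t ht _ _ _ _ => hstab ht⟩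
  have hR : Subgroup.zpowers z ≤ P := Subgroup.zpowers_le.2 hzP
  have hreg := (hS.main hR fun h => hz1 (Subgroup.zpowers_eq_bot.1 h)).1.rank
  rw [← blockRank_eq_of_central hM hB (AbelianFree.Setting.orderOf_pow hS.isPGroup hzP) hzc
    (HeightZero.centralizer_zpowers_eq z) (hS.induced hR)]
  exact hreg

/-- The block of `C(u)` below a maximal pair, when only `C(D)` fixes `u`. -/
theorem blockRank_eq_one_of_stab (hM : IsPModular p M) (hB : IsPBlock M B) {D : Subgroup G}
    {g : MonoidAlgebra (kres M) G} (hmax : IsMaxPairIdem p ⊤ (topEl M B) D g)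
    (hab : ∀ x ∈ D, ∀ y ∈ D, x * y = y * x) {u : G} (huD : u ∈ D) (hu1 : u ≠ 1)
    (hstab : ∀ t ∈ pairStab ⊤ D g, t * u * t⁻¹ = u → t ∈ Subgroup.centralizer (D : Set G))
    {H : Subgroup G} (hH : H = Subgroup.centralizer ({u} : Set G))
    {b : Set (IrrCharacter H)} (hb : IsPBlock M b)
    (hle : PairLE p ⊤ (Subgroup.zpowers u) (subEl M H b) D g) : blockRank p b = 1 := by
  classical
  haveI := Fintype.ofFinite H
  have hE := isBlockIdem_topEl (M := M) hB
  obtain ⟨-, hbD⟩ := KleinFour.maxPair_centralizer hE hmax hab hle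
  rw [HeightZero.centralizer_zpowers_eq, ← hH] at hbD
  obtain ⟨hmaxH, -⟩ := KleinFour.maxPair_centralizer hE hmax hab hle
  rw [HeightZero.centralizer_zpowers_eq, ← hH] at hmaxH
  have hDH : D ≤ H := hbD.1
  set D' := D.subgroupOf H with hD'
  have hD'def : IsDefectGroup p M b D' := (isDefectGroup_subgroupOf_iff hDH hb).2 hbD
  have hab' : ∀ x ∈ D', ∀ y ∈ D', x * y = y * x := fun x hx y hy => Subtype.ext (hab _ hx _ hy)
  obtain ⟨g', hg'⟩ := KleinFour.exists_maxPair (M := M) hb hD'def
  have hinj : Function.Injective H.subtype := H.subtype_injective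
  have hDmap : D'.map H.subtype = D := Subgroup.map_subgroupOf_eq_of_le hDH
  have hbH : IsBlockIdem H (subEl M H b) := isBlockIdem_subEl hb
  -- the pair of `D'` seen in the group
  have hg'blk := hg'.1.1.2.2
  rw [top_inf_eq] at hg'blk
  obtain ⟨c, hc, hce⟩ := exists_subEl_eq (M := M) hg'blk
  have hemb : emb (kres M) H.subtype g' =
      blockEl M (H.subtype.comp (Subgroup.centralizer (D' : Set H)).subtype) c := by
    rw [blockEl_eq_emb_subEl, hce]
  have hpairG : IsPairOfIdem p H (subEl M H b) D (emb (kres M) H.subtype g') := by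
    have h := (isBrauerPairOf_iff_blockEl (φ := H.subtype) (M := M) hinj hb hc).1
      ((isBrauerPairOf_iff hb hc).2 (by rw [hce]; exact hg'.1))
    rw [Subgroup.range_subtype, hDmap, ← hemb] at h
    exact h
  have hmax' : IsMaxPairIdem p H (subEl M H b) D (emb (kres M) H.subtype g') := by
    refine ⟨hpairG, fun R r hR hle' => ?_⟩
    refine (hbD.eq_of_le hle'.le hR.1.2.1 hR.1.1 fun h0 => ?_).symm
    have h1 : brTrunc R (subEl M H b) * r = r := hR.2
    rw [h0, zero_mul] at h1
    exact hR.1.2.2.ne_zero h1.symm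
  obtain ⟨c₀, hc₀H, hc₀D, hc₀g⟩ := hmax'.exists_conj hbH hmaxH
  refine blockRank_eq_one_of_central_free hM hb hD'def hab' hg'.1 (fun t ht => ?_)
    (z := ⟨u, by rw [hH, Subgroup.mem_centralizer_singleton_iff]⟩) huD
    (fun h => hu1 (congrArg Subtype.val h))
    (Subgroup.mem_center_iff.2 fun y => Subtype.ext (by
      have hy := y.2
      simp only [hH, Subgroup.mem_centralizer_singleton_iff] at hy
      exact hy))
  obtain ⟨⟨-, htN⟩, htg⟩ := mem_pairStab.1 ht
  have htN' : (t : G) ∈ Subgroup.normalizer (D : Set G) := by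
    rw [← hDmap]; exact Subgroup.le_normalizer_map H.subtype ⟨t, htN, rfl⟩
  have htg' : Blocks.conjA (t : G) (emb (kres M) H.subtype g') = emb (kres M) H.subtype g' := by
    have := emb_conjA (φ := H.subtype) t g'
    rw [htg] at this
    exact this.symm
  -- move it to the pair `(D, g)`
  have hcN : c₀ ∈ Subgroup.normalizer (D : Set G) := mem_normalizer_of_map_conj_le hc₀D.le
  set s := c₀⁻¹ * (t : G) * c₀ with hs
  have hsT : s ∈ pairStab ⊤ D g := by
    refine mem_pairStab.2 ⟨⟨trivial, Subgroup.mul_mem _ (Subgroup.mul_mem _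
      (Subgroup.inv_mem _ hcN) htN') hcN⟩, ?_⟩
    rw [hs, ← conjA_conjA, hc₀g, ← conjA_conjA, htg', ← hc₀g, conjA_conjA, inv_mul_cancel,
      conjA_one_left]
  have hsu : s * u * s⁻¹ = u := by
    have hsH : s ∈ H := H.mul_mem (H.mul_mem (H.inv_mem hc₀H) t.2) hc₀H
    rw [hH, Subgroup.mem_centralizer_singleton_iff] at hsH
    rw [hsH, mul_inv_cancel_right]
  have hsC := hstab s hsT hsu
  have htC : (t : G) ∈ Subgroup.centralizer (D : Set G) := by
    have h1 : c₀ * s * c₀⁻¹ ∈ (Subgroup.centralizer (D : Set G)).map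
        (MulAut.conj c₀).toMonoidHom := ⟨s, hsC, rfl⟩
    rwa [map_conj_centralizer, hc₀D, show c₀ * s * c₀⁻¹ = (t : G) by rw [hs]; group] at h1
  exact Subgroup.mem_centralizer_iff.2 fun q hq =>
    Subtype.ext (Subgroup.mem_centralizer_iff.1 htC q hq)

end CfsgLib.Blocks.AbelianRank
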