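import Cfsg.Agent.Blocks.Subsection.MajorHeights

/-!
# A major subsection bounds `k(B)` by `p ^ d` times its rank
-/

set_option autoImplicit false
open Cfsg CfsgLib Polynomial
open CfsgLib.Blocks.HeightZero
open scoped ComplexConjugate

namespace CfsgLib.Blocks.AbelianRank

universe u

variable {G : Type u} [Group G] [Fintype G] {p : ℕ} {M : Ideal AlgInt} {u : G}
  {H : Subgroup G} [Fintype H] {b : Set (IrrCharacter H)} {B : Set (IrrCharacter G)}

/-- `k(B) ≤ p ^ d l(b)` for a major subsection. -/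
theorem natCard_le_mul_blockRank (hM : IsPModular p M)
    (hH : H = Subgroup.centralizer ({u} : Set G)) {k : ℕ} (hu : u ^ p ^ k = 1)
    (hind : IsInducedBlock M H b B) (hmaj : blockDefect p b = blockDefect p B) :
    Nat.card B ≤ p ^ blockDefect p B * blockRank p b := by
  classical
  have := isMaximal_of_isPModular hM
  obtain ⟨P, hP, -, -⟩ := Contrib.exists_polys hM hH hu hind
  set R := primitiveRoots (p ^ k) ℂ with hR
  set T := B.toFinite.toFinset with hT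
  have hpos : 0 < p ^ k := pow_pos hM.1.pos k
  have hmem : ∀ χ ∈ T, χ ∈ B := fun χ hχ => (Set.Finite.mem_toFinset _).1 hχ
  obtain ⟨χ₀, hχ₀, h₀⟩ := exists_height_zero (p := p) hind.2.1
  set q : ℝ := (p : ℝ) ^ blockDefect p b with hq
  have hq0 : (0 : ℝ) < q := pow_pos (Nat.cast_pos.2 hM.1.pos) _
  -- the diagonal values are positive
  set t : ℂ → IrrCharacter G → ℝ :=
    fun μ χ => (∑ ψ ∈ T, ‖aeval μ (P χ ψ)‖ ^ 2) / q with ht
  have hval : ∀ μ ∈ R, ∀ χ, aeval μ (P χ χ) = (t μ χ : ℂ) := by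
    intro μ hμ χ
    rw [ht, Complex.ofReal_div, (hP μ hμ).2.1 χ, hq]
    push_cast
    field_simp [(Nat.cast_ne_zero.2 hM.1.ne_zero : (p : ℂ) ≠ 0)]
  have htpos : ∀ μ ∈ R, ∀ χ ∈ T, 0 < t μ χ := by
    intro μ hμ χ hχ
    obtain ⟨⟨j, hC, hord, hv⟩, -⟩ := hP μ hμ
    have hne := (Contrib.major_facts hM hH hu hind hmaj hC hord).1 χ (hmem χ hχ) χ₀ hχ₀ h₀
    rw [hv] at hne
    refine div_pos (lt_of_lt_of_le (pow_pos (norm_pos_iff.2 hne) 2) ?_) hq0
    exact Finset.single_le_sum (f := fun ψ => ‖aeval μ (P χ ψ)‖ ^ 2) (fun ψ _ => sq_nonneg _)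
      ((Set.Finite.mem_toFinset _).2 hχ₀)
  have hrow : ∀ χ ∈ T, (R.card : ℝ) ≤ ∑ μ ∈ R, t μ χ := by
    intro χ hχ
    refine Chars.GaloisSum.card_le_sum_of_one_le_prod R _ (fun μ hμ => htpos μ hμ χ hχ) ?_
    obtain ⟨N, hN⟩ := Chars.Apps.exists_intCast_eq_prod hpos (P χ χ)
    have hprod : ((∏ μ ∈ R, t μ χ : ℝ) : ℂ) = ((N : ℤ) : ℂ) := by
      rw [hN, Complex.ofReal_prod]
      exact Finset.prod_congr rfl fun μ hμ => (hval μ hμ χ).symm
    have hNR : (∏ μ ∈ R, t μ χ) = (N : ℝ) := by exact_mod_cast hprod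
    have hN0 : (0 : ℝ) < N := hNR ▸ Finset.prod_pos fun μ hμ => htpos μ hμ χ hχ
    rw [hNR]
    exact_mod_cast (show (1 : ℤ) ≤ N by exact_mod_cast hN0)
  have htot : ∀ μ ∈ R, ∑ χ ∈ T, t μ χ = q * (blockRank p b : ℝ) := by
    intro μ hμ
    apply Complex.ofReal_injective
    rw [Complex.ofReal_sum, Finset.sum_congr rfl fun χ _ => (hval μ hμ χ).symm, (hP μ hμ).2.2, hq]
    push_cast
    rfl
  have h1 : (T.card : ℝ) * R.card ≤ q * (blockRank p b : ℝ) * R.card := by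
    calc (T.card : ℝ) * R.card = ∑ _χ ∈ T, (R.card : ℝ) := by simp
      _ ≤ ∑ χ ∈ T, ∑ μ ∈ R, t μ χ := Finset.sum_le_sum hrow
      _ = ∑ μ ∈ R, q * (blockRank p b : ℝ) := by
          rw [Finset.sum_comm]; exact Finset.sum_congr rfl htot
      _ = _ := by simp; ring
  have h2 := le_of_mul_le_mul_right h1 (by
    rw [hR, Complex.card_primitiveRoots, Nat.cast_pos, Nat.totient_pos]; exact hpos)
  rw [hq, hmaj] at h2
  rw [Nat.card_coe_set_eq, Set.ncard_eq_toFinset_card B B.toFinite]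
  exact_mod_cast h2

end CfsgLib.Blocks.AbelianRank
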