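import Cfsg.Agent.Blocks.AbelianRank.Local
import Cfsg.Agent.Blocks.Subsection.SmallDefect

/-!
# A block with abelian defect group of rank two has at most `p ^ d` characters
-/

set_option autoImplicit false
set_option linter.style.haveILetI false
open Cfsg CfsgLib CfsgLib.Blocks
open scoped MonoidAlgebra

namespace CfsgLib.Blocks.AbelianRank

universe u

variable {G : Type u} [Group G] [Finite G] {p : ℕ} [Fact p.Prime] {M : Ideal AlgInt} [M.IsMaximal]
  [CharP (kres M) p] {B : Set (IrrCharacter G)}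

/-- The inertial automorphisms have order prime to `p`. -/
theorem not_dvd_card_aut (hB : IsPBlock M B) {D : Subgroup G} {g : MonoidAlgebra (kres M) G}
    (hmax : IsMaxPairIdem p ⊤ (topEl M B) D g) (hab : ∀ x ∈ D, ∀ y ∈ D, x * y = y * x) :
    ¬ p ∣ Nat.card (AbelianFree.aut D g) := by
  have hg := hmax.1.1
  have hE := isBlockIdem_topEl (M := M) hB
  have hgb := hg.2.2
  rw [top_inf_eq] at hgb
  have hCT := centralizer_le_pairStab hg
  have hTN := pairStab_le_normalizer (⊤ : Subgroup G) D g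
  have hD := isDefectGroupIdem_pairStab_self hE hmax
  rw [inf_eq_left.mpr (Subgroup.le_normalizer (H := D))] at hD
  have hidx := not_dvd_relIndex_sup_defectGroup hCT
    (hTN.trans (normalizer_le_normalizer_centralizer D)) hgb hg.isBlockIdem_pairStab hD
  rw [sup_eq_left.mpr (KleinFour.le_centralizer_of_abelian hab le_rfl)] at hidx
  have hker : (D.normalizerMonoidHom.comp
      (Subgroup.inclusion (pairStab_le_normalizer (⊤ : Subgroup G) D g))).ker =
      (Subgroup.centralizer (D : Set G)).subgroupOf (pairStab ⊤ D g) := by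
    rw [← MonoidHom.comap_ker, Subgroup.normalizerMonoidHom_ker]
    rfl
  rw [AbelianFree.aut, ← Subgroup.index_ker, hker]
  exact hidx

/-- With at most `p ^ 2` elements killed by `p` in an abelian defect group, `k(B) ≤ p ^ d`. -/
theorem natCard_le_of_omega (hM : IsPModular p M) (hB : IsPBlock M B) {D : Subgroup G}
    (hD : IsDefectGroup p M B D) (hab : ∀ x ∈ D, ∀ y ∈ D, x * y = y * x)
    (hΩ : Nat.card {x : D // x ^ p = 1} ≤ p ^ 2) : Nat.card B ≤ p ^ blockDefect p B := by
  classical
  rcases le_or_gt (blockDefect p B) 2 with hd | hd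
  · exact Contrib.natCard_le_of_defect_le_two hM hB hd
  haveI := Fintype.ofFinite G
  have hp : p.Prime := Fact.out
  have hcard := Contrib.natCard_defectGroup hM hB hD
  have hDp : IsPGroup p D := IsPGroup.of_card hcard
  letI : CommGroup D :=
    { (inferInstance : Group D) with mul_comm := fun a b => Subtype.ext (hab a a.2 b b.2) }
  obtain ⟨g, hmax⟩ := KleinFour.exists_maxPair (M := M) hB hD
  have hΩ' : Nat.card (kerPow p D) ≤ p ^ 2 :=
    (Nat.card_congr (Equiv.subtypeEquivRight fun _ => mem_kerPow)).trans_le hΩ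
  obtain ⟨⟨u, huD⟩, hu1, hstab⟩ := exists_faithful_point hDp hΩ'
    (hcard ▸ Nat.pow_le_pow_right hp.pos hd) (AbelianFree.aut D g) (not_dvd_card_aut hB hmax hab)
  have hu1' : u ≠ 1 := fun h => hu1 (Subtype.ext h)
  obtain ⟨k, hk⟩ := IsPGroup.iff_orderOf.1 hDp ⟨u, huD⟩
  rw [Subgroup.orderOf_mk] at hk
  have hg := hmax.1.1
  obtain ⟨f, hf, -⟩ := hg.existsUnique_le (Subgroup.zpowers_le.2 huD)
  obtain ⟨b, hb, hbf⟩ := KleinFour.exists_block_of_isPairOf hM hB ⟨k, hk⟩
    ((hf.pairOf_iff (isBlockIdem_topEl hB) hg).2 hmax.1)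
  rw [← hbf] at hf
  have hl : blockRank p b = 1 := by
    refine blockRank_eq_one_of_stab hM hB hmax hab huD hu1' ?_ rfl hb.1 hf
    intro t ht htu
    obtain ⟨⟨-, htN⟩, -⟩ := mem_pairStab.1 ht
    have hmem : ∀ v : D, t * (v : G) * t⁻¹ ∈ D := fun v =>
      (Subgroup.mem_normalizer_iff.1 htN v).1 v.2
    set a : MulAut D := (D.normalizerMonoidHom.comp
      (Subgroup.inclusion (pairStab_le_normalizer ⊤ D g))) ⟨t, ht⟩ with ha
    have hcoe : ∀ v : D, (a v : G) = t * v * t⁻¹ := fun v => rfl
    have ha1 := hstab a ⟨⟨t, ht⟩, rfl⟩ (Subtype.ext ((hcoe _).trans htu))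
    refine Subgroup.mem_centralizer_iff.2 fun q hq => ?_
    have h1 := hcoe ⟨q, hq⟩
    rw [ha1, MulAut.one_apply] at h1
    conv_lhs => rw [show q = t * q * t⁻¹ from h1, inv_mul_cancel_right]
  have hbD := (KleinFour.maxPair_centralizer (isBlockIdem_topEl hB) hmax hab hf).2
  rw [HeightZero.centralizer_zpowers_eq] at hbD
  have hmaj : blockDefect p b = blockDefect p B := Nat.pow_right_injective hp.two_le (by
    show p ^ _ = p ^ _
    rw [← hcard, ← Contrib.natCard_defectGroup hM hb.1
      ((isDefectGroup_subgroupOf_iff hbD.1 hb.1).2 hbD),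
      Nat.card_congr (Subgroup.subgroupOfEquivOfLe hbD.1).toEquiv])
  refine Contrib.natCard_le_of_major hM rfl (n := k) ?_ hb hmaj (hl.le.trans one_le_two)
  rw [pow_succ, pow_mul, ← hk, pow_orderOf_eq_one, one_pow]

end CfsgLib.Blocks.AbelianRank
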